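import Cfsg.Agent.H25.UGDefs

/-! A non-divisibility for the order of the unitary group in dimension seven. -/

set_option autoImplicit false

namespace Cfsg.Agent.Lead.UgNum1

open Cfsg.Agent.H31 Cfsg.Agent.H25.UG

theorem key {R : Type*} [CommRing R] (x : R)
    (f : x ^ 6 - x ^ 5 + x ^ 4 - x ^ 3 + x ^ 2 - x - 1 = 0)
    (h : x ^ 21 * ((x + 1) * (x ^ 2 - 1) * (x ^ 3 + 1) * (x ^ 4 - 1) * (x ^ 5 + 1) * (x ^ 6 - 1) *
      (x ^ 7 + 1)) = 0) : (781250 : R) = 0 := by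
  have e0 : (-1 + x - x ^ 2 + x ^ 3 - x ^ 4 + x ^ 5) * x = 1 := by linear_combination f
  have e1 : (6 - 5 * x + 4 * x ^ 2 - 3 * x ^ 3 + 2 * x ^ 4 - x ^ 5) * (x + 1) = 5 := by
    linear_combination (-1) * f
  have e2 : (-3 + 5 * x - 2 * x ^ 2 + 4 * x ^ 3 - x ^ 4 + 3 * x ^ 5) * (x ^ 2 - 1) = 5 := by
    linear_combination (2 + 3 * x) * f
  have e3 : (2 - 5 * x + 3 * x ^ 2 - x ^ 3 + 4 * x ^ 4 - 2 * x ^ 5) * (x ^ 3 + 1) = 5 := by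
    linear_combination (3 + 2 * x - 2 * x ^ 2) * f
  have e4 : (-3 + 3 * x - x ^ 2 + 3 * x ^ 3 - 2 * x ^ 4 + 2 * x ^ 5) * (x ^ 4 - 1) = 5 := by
    linear_combination (2 + x + 2 * x ^ 3) * f
  have e5 : (16 - 5 * x + 14 * x ^ 2 - 18 * x ^ 3 + 17 * x ^ 4 - 11 * x ^ 5) * (x ^ 5 + 1) = 25 := by
    linear_combination (9 - 4 * x - x ^ 2 + 6 * x ^ 3 - 11 * x ^ 4) * f
  have e6 : (-1 + 5 * x - 4 * x ^ 2 + 3 * x ^ 3 - 2 * x ^ 4 + x ^ 5) * (x ^ 6 - 1) = 5 := by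
    linear_combination (4 + x - x ^ 2 + x ^ 3 - x ^ 4 + x ^ 5) * f
  have e7 : (6 - 5 * x + 4 * x ^ 2 - 3 * x ^ 3 + 2 * x ^ 4 - x ^ 5) * (x ^ 7 + 1) = 10 := by
    linear_combination (4 + x - x ^ 2 + x ^ 3 - x ^ 4 + x ^ 5 - x ^ 6) * f
  generalize x + 1 = g1, x ^ 2 - 1 = g2, x ^ 3 + 1 = g3, x ^ 4 - 1 = g4, x ^ 5 + 1 = g5,
    x ^ 6 - 1 = g6, x ^ 7 + 1 = g7 at *
  revert e0 e1 e2 e3 e4 e5 e6 e7
  generalize (-1 + x - x ^ 2 + x ^ 3 - x ^ 4 + x ^ 5) = a0,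
    (6 - 5 * x + 4 * x ^ 2 - 3 * x ^ 3 + 2 * x ^ 4 - x ^ 5) = a1,
    (-3 + 5 * x - 2 * x ^ 2 + 4 * x ^ 3 - x ^ 4 + 3 * x ^ 5) = a2,
    (2 - 5 * x + 3 * x ^ 2 - x ^ 3 + 4 * x ^ 4 - 2 * x ^ 5) = a3,
    (-3 + 3 * x - x ^ 2 + 3 * x ^ 3 - 2 * x ^ 4 + 2 * x ^ 5) = a4,
    (16 - 5 * x + 14 * x ^ 2 - 18 * x ^ 3 + 17 * x ^ 4 - 11 * x ^ 5) = a5,
    (-1 + 5 * x - 4 * x ^ 2 + 3 * x ^ 3 - 2 * x ^ 4 + x ^ 5) = a6
  intro e0 e1 e2 e3 e4 e5 e6 e7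
  calc (781250 : R) = 1 ^ 21 * (5 * 5 * 5 * 5 * 25 * 5 * 10) := by norm_num
    _ = (a0 * x) ^ 21 * (a1 * g1 * (a2 * g2) * (a3 * g3) * (a4 * g4) * (a5 * g5) * (a6 * g6) *
      (a1 * g7)) := by rw [e0, e1, e2, e3, e4, e5, e6, e7]
    _ = a0 ^ 21 * (a1 * a2 * a3 * a4 * a5 * a6 * a1) *
      (x ^ 21 * (g1 * g2 * g3 * g4 * g5 * g6 * g7)) := by ring
    _ = 0 := by rw [h, mul_zero]

theorem num1 : Num1Stmt := by
  intro q t hq _ ht hd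
  have h1 : (t : ℤ) = q ^ 6 - q ^ 5 + q ^ 4 - q ^ 3 + q ^ 2 - q + 1 := by
    have h2 : ((q : ℤ) + 1) * t = q ^ 7 + 1 := by exact_mod_cast ht.symm
    refine mul_left_cancel₀ (a := (q : ℤ) + 1) (by positivity) ?_
    rw [h2]; ring
  have q2 : (2 : ℤ) ≤ q := by exact_mod_cast hq
  have mono : ∀ c : ℤ, 1 ≤ c → c ≤ q → c ^ 5 * (c - 1) < t := fun c c1 hc => by
    have a1 : c ^ 5 * (c - 1) ≤ q ^ 5 * (q - 1) := by gcongr
    have a2 : (0 : ℤ) ≤ q ^ 3 * (q - 1) := mul_nonneg (by positivity) (by omega)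
    have a3 : (0 : ℤ) ≤ q * (q - 1) := mul_nonneg (by positivity) (by omega)
    rw [h1]; nlinarith
  have t2 : 2 < t := by have := mono 2 (by norm_num) q2; omega
  have h3 : t - 2 ∣ 781250 := by
    rw [← ZMod.natCast_eq_zero_iff] at hd ⊢
    have p : ∀ k, 1 ≤ q ^ k := fun k => Nat.one_le_pow _ _ (by omega)
    have h4 : ((t - 2 : ℕ) : ZMod (t - 2)) = 0 := ZMod.natCast_self _
    rw [Nat.cast_sub t2.le, ← Int.cast_natCast t, h1] at h4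
    have := key (q : ZMod (t - 2)) (by push_cast at h4; linear_combination h4) (by
      rw [← hd]
      simp [ordGU, Finset.prod_range_succ, Nat.cast_sub (p _), Nat.even_add_one])
    exact_mod_cast this
  have h5 := Nat.le_of_dvd (by norm_num) h3
  have q10 : q < 10 := by
    by_contra hc
    have := mono 10 (by norm_num) (by omega)
    omega
  interval_cases q <;> norm_num at h1 <;> (obtain rfl : t = _ := by exact_mod_cast h1) <;>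
    norm_num at h3

end Cfsg.Agent.Lead.UgNum1
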