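import Cfsg.Agent.H74.UVDefs
import Cfsg.Agent.H33.UgC4

/-! The normaliser of an adjoint closed field of degree eleven in `SU₁₁(q)`: transfer to the field
model. -/

set_option autoImplicit false

namespace Cfsg.Agent.Lead.UvC4

open Cfsg Module Matrix Cfsg.Geo Cfsg.Agent.H31 Cfsg.Agent.H77.Sg Cfsg.Agent.H74.UV
open Cfsg.Agent.H33.UgC4 (pull pull_apply isHerm_pull exists_scale)

universe u

theorem c4 (mx : MaxStmt.{u}) : C4Stmt.{u} := by
  intro F _ _ q hF K hK hA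
  let _ : Field K := (H32.isField_of_isFieldSubalgebra (by norm_num) hK).toField
  have hrk : finrank F K = 11 := hK.finrank_eq
  obtain ⟨v₀, hv₀⟩ := exists_ne (0 : Fin 11 → F)
  let e₀ : K →ₗ[F] (Fin 11 → F) := (LinearMap.toSpanSingleton K (Fin 11 → F) v₀).restrictScalars F
  have inj : Function.Injective e₀ := smul_left_injective K hv₀
  let e₁ : K ≃ₗ[F] (Fin 11 → F) := e₀.linearEquivOfInjective inj (by simp [hrk])
  have em₁ : ∀ a x : K, e₁ (a * x) = (a : Matrix (Fin 11) (Fin 11) F) *ᵥ e₁ x :=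
    fun a x => mul_smul a x v₀
  have hh := isHerm_hermB hF 11
  obtain ⟨γ, γ0, hγ⟩ := exists_scale (isHerm_pull hh e₁) (n := q ^ 11) (by
    rw [Module.natCard_eq_pow_finrank (K := F), hrk, Nat.card_eq_fintype_card, hF]; ring)
    fun a => by
      obtain ⟨k, hk, e⟩ := hA a a.2
      refine ⟨⟨k, hk⟩, fun x y => ?_⟩
      rw [pull_apply, pull_apply, em₁, em₁, ← hermForm_eq hF, ← hermForm_eq hF, e]
  let e : K ≃ₗ[F] (Fin 11 → F) := (mulH F K (Units.mk0 γ γ0)).trans e₁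
  have em : ∀ a x : K, e (a * x) = (a : Matrix (Fin 11) (Fin 11) F) *ᵥ e x := fun a x => by
    change e₁ (γ * (a * x)) = _ *ᵥ e₁ (γ * x)
    rw [mul_left_comm, em₁]
  obtain ⟨N, hN, -⟩ := (H51.SgKit.kit F K (by rw [hrk]; norm_num)).sub
  have key := mx F K (frobQ hF) (pull (hermB hF 11) e) q ⟨hF, fun _ => rfl, isHerm_pull hh e⟩ hrk
    hγ N hN
  let f : GL (Fin 11) F ≃* (K ≃ₗ[F] K) := (glEquiv (Fin 11) F).trans (autCongr e.symm)
  have hf : ∀ g x, e (f g x) = (g : Matrix (Fin 11) (Fin 11) F) *ᵥ e x :=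
    fun g x => e.apply_symm_apply _
  have hS : ∀ g, f g ∈ sisom (pull (hermB hF 11) e) ↔ g ∈ GU 11 F q ⊓ specialLinear (Fin 11) F :=
    fun g => (autCongr_mem_sisom (e := e.symm) (B := hermB hF 11) fun x y => by
      rw [pull_apply, e.apply_symm_apply, e.apply_symm_apply]).trans (glEquiv_mem_sisom hF)
  have hn : ∀ g : GL (Fin 11) F, Nm (f g) ↔ ∀ k ∈ K, H25.cj g k ∈ K := fun g => by
    refine ⟨fun b k hk => ?_, fun b k => ⟨⟨_, b k k.2⟩, fun x => e.injective ?_⟩⟩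
    · obtain ⟨a', ha'⟩ := b ⟨k, hk⟩
      have : H25.cj g k = a' := H25.mat_ext_mulVec fun y => by
        obtain ⟨x, rfl⟩ := ((f g).trans e).surjective y
        have := congrArg e (ha' x)
        rw [hf, em, em] at this
        rw [LinearEquiv.trans_apply, ← this, hf, H25.cj_mulVec]
      rw [this]; exact a'.2
    · rw [hf, em, em, hf, H25.cj_mulVec]
  refine isMaximalIn_of_equiv f hS (fun g => and_congr ?_ (hS g)) key
  change f g ∈ N ↔ g ∈ subalgebraNormalizer K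
  rw [H25.mem_subalgebraNormalizer]
  refine ⟨fun b k => ⟨(hn g).1 ((hN _).1 b) k, fun c => ?_⟩,
    fun b => (hN _).2 ((hn g).2 fun k hk => (b k).1 hk)⟩
  have := (hn g⁻¹).1 ((hN _).1 (by rw [map_inv]; exact N.inv_mem b)) _ c
  rwa [H25.cj_inv_cj] at this

end Cfsg.Agent.Lead.UvC4
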