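import Cfsg.Agent.Lead.WoP3
import Cfsg.Agent.H12.WoOD
import Cfsg.Agent.H55.WoGA
import Cfsg.Agent.H2.WoB1

/-!
Involutions of the normaliser commute with plane involutions.
-/

set_option autoImplicit false
set_option linter.unusedSectionVars false

namespace Cfsg.Agent.Lead.Wo

open Cfsg.Agent.H30 Cfsg.Agent.H17.Wo Module QuadraticMap Subgroup

universe u w

theorem od3 : OD3Stmt.{w} := fun H z h0 h1 h2 h3 h4 => H12.Wo.od2 H z h0 h1 h2 h3 fun v hv e => by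
  obtain ⟨x, hx, h5, h6⟩ := h4 v hv e
  exact ⟨x, hx, h5.symm, h6⟩

variable {F V : Type u} [Field F] [Finite F] [AddCommGroup V] [Module F V] [FiniteDimensional F V]
  {Q : QuadraticForm F V} {hQ : (polarBilin Q).Nondegenerate}

/-- an invariant plane inside an invariant subspace -/
theorem plnW (h2 : (2 : F) ≠ 0) (ha : GA hQ) {W : Submodule F V} (hW : NondegOn Q W)
    (h5 : 5 ≤ finrank F W) {k : O Q} (hk : ∀ x ∈ W, k.1 x ∈ W)
    (hs : (∀ x ∈ W, k.1 (k.1 x) = x) ∨ ∀ x ∈ W, k.1 (k.1 x) = -x) :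
    ∃ π, Pl Q π ∧ movSp π ≤ W ∧ π * k = k * π := by
  have le : ∀ c ∈ W, ∀ d ∈ W, Q c ≠ 0 → Q d = Q c → polar Q c d = 0 →
      movSp (refl Q c * refl Q d) ≤ W := fun c hc d hd c0 e p => by
    rw [ha.mov_rr c d c0 (e ▸ c0) p, Submodule.span_le]
    rintro _ (rfl | rfl)
    · exact hc
    · exact hd
  rcases hs with hs | hs
  · have key : ∀ U : Submodule F V, U ≤ W → NondegOn Q U → 3 ≤ finrank F U → (∀ c ∈ U, Eig k c) →
        ∃ π, Pl Q π ∧ movSp π ≤ W ∧ π * k = k * π := fun U hU hn h3 he => by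
      obtain ⟨v, a1, a2⟩ := H2.WoB.frame0 h2 U hn 2 h3 1 one_ne_zero
      have b1 := (a1.1 0).trans_ne one_ne_zero
      have b2 := (a1.1 1).trans (a1.1 0).symm
      have b3 := a1.2 0 1 (by decide)
      refine ⟨_, ⟨v 0, v 1, b1, b2, b3, rfl⟩, le _ (hU (a2 0)) _ (hU (a2 1)) b1 b2 b3, ?_⟩
      rw [mul_assoc, ← ha.eig_comm k _ (he _ (a2 1)), ← mul_assoc, ← ha.eig_comm k _ (he _ (a2 0)),
        mul_assoc]
    have m1 : ∀ {x}, x ∈ W ⊓ fixSp k ↔ x ∈ W ∧ k.1 x = x := by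
      intro x; rw [Submodule.mem_inf, mem_fixSp]
    have m2 : ∀ {x}, x ∈ W ⊓ fixSp (negOne Q * k) ↔ x ∈ W ∧ k.1 x = -x := by
      intro x; rw [Submodule.mem_inf, mem_fixSp, O_mul_apply, negOne_apply, neg_eq_iff_eq_neg]
    have dec : ∀ x ∈ W, ∃ a ∈ W ⊓ fixSp k, ∃ b ∈ W ⊓ fixSp (negOne Q * k), a + b = x := fun x hx =>
      ⟨(2 : F)⁻¹ • (x + k.1 x), m1.2 ⟨W.smul_mem _ (W.add_mem hx (hk x hx)), by
          rw [map_smul, map_add, hs x hx, add_comm]⟩,
        (2 : F)⁻¹ • (x - k.1 x), m2.2 ⟨W.smul_mem _ (W.sub_mem hx (hk x hx)), by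
          rw [map_smul, map_sub, hs x hx, ← smul_neg, neg_sub]⟩, by
        rw [← smul_add, add_add_sub_cancel, ← two_smul F, smul_smul, inv_mul_cancel₀ h2, one_smul]⟩
    have orth : ∀ a ∈ W ⊓ fixSp k, ∀ b ∈ W ⊓ fixSp (negOne Q * k), polar Q a b = 0 :=
      fun a ha b hb => by
      have := O_polar k a b
      rw [(m1.1 ha).2, (m2.1 hb).2, polar_neg_right, neg_eq_iff_add_eq_zero, ← two_mul] at this
      exact (mul_eq_zero.1 this).resolve_left h2
    have hd : finrank F W ≤ finrank F ↥(W ⊓ fixSp k) + finrank F ↥(W ⊓ fixSp (negOne Q * k)) :=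
      (Submodule.finrank_mono fun x hx => Submodule.mem_sup.2 (dec x hx)).trans
        (Submodule.finrank_add_le_finrank_add_finrank _ _)
    by_cases h : 3 ≤ finrank F ↥(W ⊓ fixSp k)
    · refine key _ inf_le_left (fun x hx h0 => hW x hx.1 fun y hy => ?_) h
        fun c hc => Or.inl (m1.1 hc).2
      obtain ⟨a, a1, b, b1, rfl⟩ := dec y hy
      rw [polar_add_right, h0 a a1, orth x hx b b1, add_zero]
    · refine key (W ⊓ fixSp (negOne Q * k)) inf_le_left (fun x hx h0 => hW x hx.1 fun y hy => ?_)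
        (by omega) fun c hc => Or.inr (m2.1 hc).2
      obtain ⟨a, a1, b, b1, rfl⟩ := dec y hy
      rw [polar_add_right, h0 b b1, polar_comm, orth a a1 x hx, add_zero]
  · obtain ⟨w, hw, hq⟩ := hW.exists_Q_ne_zero (by rintro rfl; simp at h5)
    have e := hs w hw
    have p := H2.WoB.polar_rot h2 e
    refine ⟨_, ⟨w, k.1 w, hq, O_map k w, p, rfl⟩, le _ hw _ (hk w hw) hq (O_map k w) p, ?_⟩
    rw [← mul_assoc, mul_refl k, mul_assoc (refl Q (k.1 w)), mul_refl k, e, refl_neg, ← mul_assoc,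
      ha.rr_comm _ _ p]

variable {G : Type w} [Group G] [Finite G] {Θ : O Q → G}

theorem mem_of_four (h : FE hQ Θ) {w : G} (hw : w ∈ Nm hQ Θ) (h4 : w * w * (w * w) = 1) :
    ∃ k ∈ kerDS hQ, Θ k = w := by
  rw [← h.hom.mem_Im]
  have hn : ((Im (kerDS hQ) Θ).subgroupOf (Nm hQ Θ)).Normal :=
    normal_subgroupOf_of_le_normalizer le_rfl
  obtain ⟨m, hm⟩ := h.odd.pow (n := 2)
  have h1 := pow_index_mem (H := (Im (kerDS hQ) Θ).subgroupOf (Nm hQ Θ)) ⟨w, hw⟩
  have h3 : w ^ (Im (kerDS hQ) Θ).relIndex (Nm hQ Θ) ∈ Im (kerDS hQ) Θ := h1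
  obtain ⟨n, hn⟩ := h.odd
  have h5 := pow_mem h3 (2 * n + 1)
  rwa [hn, ← pow_mul, show (2 * n + 1) * (2 * n + 1) = 4 * (n * n + n) + 1 by ring, pow_succ,
    pow_mul, show w ^ 4 = 1 by rw [← h4]; simp [pow_succ, mul_assoc], one_pow, one_mul] at h5

theorem lift_pm (h : FE hQ Θ) {a b : O Q} (ha : a ∈ kerDS hQ) (hb : b ∈ kerDS hQ)
    (e : Θ a = Θ b) : a = b ∨ a = negOne Q * b := by
  have := h.ker _ (mul_mem ha (inv_mem hb)) (by
    rw [h.hom _ ha _ (inv_mem hb), h.hom.inv hb, e, mul_inv_cancel])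
  exact this.imp mul_inv_eq_one.1 mul_inv_eq_iff_eq_mul.1

theorem pl_nm (h : FE hQ Θ) {m : O Q} (hm : m ∈ kerDS hQ) : Θ m ∈ Nm hQ Θ :=
  le_normalizer (mem_Im_of hm)

/-- the hypothesis for the whole group -/
theorem p3u_top (h : FE hQ Θ) : P3u ⊤ (Nm hQ Θ) 1 := fun w _ hw hs => by
  have ha : GA hQ := H55.WoG.ga hQ h.two
  have h2 : w * w = 1 := hs.elim id id
  obtain ⟨k, hk, rfl⟩ := mem_of_four h hw (by rw [h2, mul_one])
  have h4 : k ^ 4 = 1 := by
    rw [show k ^ 4 = k * k * (k * k) by simp [pow_succ, mul_assoc]]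
    rcases h.ker _ (mul_mem hk hk) (by rw [h.hom _ hk _ hk, h2]) with e | e <;> rw [e]
    · simp
    · exact O_ext fun x => by simp [O_mul_apply, negOne_apply]
  obtain ⟨π, hπ, hc⟩ := H2.WoB.pln hQ h.two ha (by have := h.dim; omega) k h4
  have hm := ha.pl_mem π hπ
  exact ⟨Θ π, mem_top _, pl_nm h hm, Or.inl (by rw [← h.hom _ hk _ hm, ← h.hom _ hm _ hk, hc]),
    fun g _ hg => (h.p1 π hπ g hg).1⟩

/-- the hypothesis for a subgroup centralising the image of a weight four involution -/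
theorem p3u (h : FE hQ Θ) {y : O Q} (hy : W4 Q y) {L : Subgroup G}
    (hL : ∀ g ∈ L, g * Θ y = Θ y * g)
    (hP : ∀ π, Pl Q π → movSp π ≤ perp Q (movSp y) → Θ π ∈ L) : P3u L (Nm hQ Θ) (Θ y) :=
  fun w hwL hw hs => by
  have ha : GA hQ := H55.WoG.ga hQ h.two
  have hd := h.dim
  have h4 := ha.wt_w4 y hy
  obtain ⟨ym, y2⟩ : y ∈ kerDS hQ ∧ y * y = 1 := by
    obtain ⟨π, π', h1, h2, h3, rfl⟩ := hy
    refine ⟨mul_mem (ha.pl_mem _ h1) (ha.pl_mem _ h2), ?_⟩
    rw [mul_assoc, ← mul_assoc π', ← ha.orth_comm _ _ h3, mul_assoc, ha.pl_sq _ h2, mul_one,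
      ha.pl_sq _ h1]
  have u2 : Θ y * Θ y = 1 := by rw [← h.hom _ ym _ ym, y2, h.hom.one]
  obtain ⟨k, hk, rfl⟩ := mem_of_four h hw (by
    rcases hs with e | e <;> rw [e]
    · simp
    · exact u2)
  have hc : k * y * k⁻¹ = y := by
    refine (lift_pm h (mul_mem (mul_mem hk ym) (inv_mem hk)) ym (by
      rw [h.hom.conj hk ym, hL _ hwL, mul_inv_cancel_right])).resolve_right fun e => ?_
    have h1 := ha.wt_conj k y
    have h3 := ha.wt_neg y y2
    rw [e] at h1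
    omega
  obtain ⟨-, n2, n3⟩ := ha.inv_nd y y2
  have hf := n3.finrank_add
  have hkk : k * k = 1 ∨ k * k = negOne Q * 1 ∨ k * k = y ∨ k * k = negOne Q * y := by
    rcases hs with e | e
    · exact (lift_pm h (mul_mem hk hk) (one_mem _) (by rw [h.hom _ hk _ hk, e, h.hom.one])).imp_right
        Or.inl
    · exact Or.inr (Or.inr (lift_pm h (mul_mem hk hk) ym (by rw [h.hom _ hk _ hk, e])))
  obtain ⟨π, hπ, hle, hcm⟩ := plnW h.two ha n2 (by rw [wt] at h4; omega) (k := k)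
    (fun x hx => mem_fixSp.2 (by
      rw [← O_mul_apply, ← mul_inv_eq_iff_eq_mul.1 hc, O_mul_apply, mem_fixSp.1 hx])) (by
      rcases hkk with e | e | e | e
      · exact Or.inl fun x _ => by rw [← O_mul_apply, e, O_one_apply]
      · exact Or.inr fun x _ => by rw [← O_mul_apply, e, mul_one, negOne_apply]
      · exact Or.inl fun x hx => by rw [← O_mul_apply, e, mem_fixSp.1 hx]
      · exact Or.inr fun x hx => by
          rw [← O_mul_apply, e, O_mul_apply, mem_fixSp.1 hx, negOne_apply])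
  have hm := ha.pl_mem π hπ
  exact ⟨Θ π, hP π hπ (n3.eq_perp hQ ▸ hle), pl_nm h hm,
    Or.inl (by rw [← h.hom _ hk _ hm, ← h.hom _ hm _ hk, hcm]), fun g _ hg => (h.p1 π hπ g hg).1⟩

/-- the centraliser of an element moving only vectors of the moved space of `y` -/
theorem p3u_cent (h : FE hQ Θ) {y x : O Q} (hy : W4 Q y) (hx : x ∈ kerDS hQ)
    (hle : movSp x ≤ movSp y) (hL : ∀ g, g * Θ x = Θ x * g → g * Θ y = Θ y * g) :
    P3u (centralizer {Θ x}) (Nm hQ Θ) (Θ y) := by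
  have ha : GA hQ := H55.WoG.ga hQ h.two
  refine p3u h hy (fun g hg => hL g (mem_centralizer_singleton_iff.1 hg)) fun π hπ h1 => ?_
  have hm := ha.pl_mem π hπ
  rw [mem_centralizer_singleton_iff, ← h.hom _ hm _ hx, ← h.hom _ hx _ hm,
    ha.orth_comm x π (h1.trans (perp_anti hle))]

end Cfsg.Agent.Lead.Wo
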